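import Mathlib
import Cfsg.Agent.Lib.H34.SpWDefs

/-!
# S5707: transport of the data of one tensor factor, and the case `k = 2`
-/

set_option autoImplicit false

namespace H3.SpWKD

open Matrix H34.SpW

theorem transport {F : Type*} [Field F] {k t : ℕ} (f g : (Fin k → F) → (Fin k → F) → F) (B : GL (Fin k) F)
    (hB : ∀ u v, f ((B : Matrix (Fin k) (Fin k) F) *ᵥ u) ((B : Matrix (Fin k) (Fin k) F) *ᵥ v) = g u v)
    (K : KD k t g) : Nonempty (KD k t f) := by
  obtain ⟨M, hM⟩ : ∃ M : Matrix (Fin k) (Fin k) F, M = (B : Matrix (Fin k) (Fin k) F) := ⟨_, rfl⟩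
  obtain ⟨N, hN⟩ : ∃ N : Matrix (Fin k) (Fin k) F, N = ((B⁻¹ : GL (Fin k) F) : Matrix (Fin k) (Fin k) F) := ⟨_, rfl⟩
  have hMN : M * N = 1 := by rw [hM, hN, ← Units.val_mul, mul_inv_cancel, Units.val_one]
  have hNM : N * M = 1 := by rw [hM, hN, ← Units.val_mul, inv_mul_cancel, Units.val_one]
  rw [← hM] at hB
  have hsurj : ∀ u : Fin k → F, ∃ u', M *ᵥ u' = u := fun u => ⟨N *ᵥ u, by
    rw [mulVec_mulVec, hMN, one_mulVec]⟩
  have hcv : ∀ (X : Matrix (Fin k) (Fin k) F) (v : Fin k → F), (M * X * N) *ᵥ (M *ᵥ v) = M *ᵥ (X *ᵥ v) := by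
    intro X v
    rw [mulVec_mulVec, mulVec_mulVec, mul_assoc, hNM, mul_one]
  have hcc : ∀ X Y : Matrix (Fin k) (Fin k) F, (M * X * N) * (M * Y * N) = M * (X * Y) * N := by
    intro X Y
    calc (M * X * N) * (M * Y * N) = M * X * (N * M) * Y * N := by simp only [mul_assoc]
      _ = _ := by rw [hNM, mul_one]; simp only [mul_assoc]
  have hback : ∀ X : Matrix (Fin k) (Fin k) F, N * ((M * X * N) * M) = X := by
    intro X
    calc N * ((M * X * N) * M) = (N * M) * X * (N * M) := by simp only [mul_assoc]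
      _ = X := by rw [hNM, one_mul, mul_one]
  have hforth : ∀ X : Matrix (Fin k) (Fin k) F, M * (N * (X * M)) * N = X := by
    intro X
    calc M * (N * (X * M)) * N = (M * N) * X * (M * N) := by simp only [mul_assoc]
      _ = X := by rw [hMN, one_mul, mul_one]
  have hupd : ∀ (x : Fin t → Fin k → F) (X : Matrix (Fin k) (Fin k) F) (i₀ i : Fin t),
      Function.update (fun i => M *ᵥ x i) i₀ ((M * X * N) *ᵥ (M *ᵥ x i₀)) i =
        M *ᵥ Function.update x i₀ (X *ᵥ x i₀) i := by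
    intro x X i₀ i
    by_cases h : i = i₀
    · subst h
      rw [Function.update_self, Function.update_self, hcv]
    · rw [Function.update_of_ne h, Function.update_of_ne h]
  refine ⟨{
    Wk := K.Wk.comap ((LinearMap.mulLeft F N).comp (LinearMap.mulRight F M))
    one := ?_
    sq := ?_
    sim := ?_
    E := M * K.E * N
    E' := M * K.E' * N
    hE := ?_
    hE' := ?_
    EE := ?_
    EE' := ?_
    EEone := ?_
    adjE := ?_
    adjE' := ?_
    alt := ?_
    p := M *ᵥ K.p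
    a := M *ᵥ K.a
    b := M *ᵥ K.b
    E'p := ?_
    fpa := ?_
    fqa := ?_
    fpb := ?_
    fqb := ?_
    x := fun i => M *ᵥ K.x i
    y := fun i => M *ᵥ K.y i
    s := fun i => M *ᵥ K.s i
    z := fun i => M *ᵥ K.z i
    i₀ := K.i₀
    hxy := ?_
    hsz := ?_
    hxs := ?_
    hxz := ?_
    hys := ?_
    hyz := ?_
    hxs' := ?_
    hys' := ?_
    hxy' := ?_ }⟩
  · change N * (1 * M) ∈ K.Wk
    rw [one_mul, hNM]
    exact K.one
  · intro X hX
    obtain ⟨a, ha⟩ := K.sq _ hX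
    refine ⟨a, ?_⟩
    change (N * (X * M)) * (N * (X * M)) = a • (1 : Matrix (Fin k) (Fin k) F) at ha
    rw [← hforth X, hcc, ha, mul_smul_comm, smul_mul_assoc, mul_one, hMN]
  · intro A c hc hA X hX
    change N * (X * M) ∈ K.Wk at hX
    have h1 := K.sim (B⁻¹ * A * B) c hc ?_ _ hX
    · change N * (((A : Matrix (Fin k) (Fin k) F) * X * ((A⁻¹ : GL (Fin k) F) : Matrix (Fin k) (Fin k) F)) * M) ∈ K.Wk
      have h2 : ((B⁻¹ * A * B : GL (Fin k) F) : Matrix (Fin k) (Fin k) F) * (N * (X * M)) *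
          (((B⁻¹ * A * B)⁻¹ : GL (Fin k) F) : Matrix (Fin k) (Fin k) F) =
          N * (((A : Matrix (Fin k) (Fin k) F) * X * ((A⁻¹ : GL (Fin k) F) : Matrix (Fin k) (Fin k) F)) * M) := by
        rw [_root_.mul_inv_rev, _root_.mul_inv_rev, inv_inv]
        simp only [Units.val_mul]
        rw [← hM, ← hN]
        calc N * (A : Matrix (Fin k) (Fin k) F) * M * (N * (X * M)) *
              (N * (((A⁻¹ : GL (Fin k) F) : Matrix (Fin k) (Fin k) F) * M))
            = N * (A : Matrix (Fin k) (Fin k) F) * (M * N) * X * (M * N) *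
                ((A⁻¹ : GL (Fin k) F) : Matrix (Fin k) (Fin k) F) * M := by simp only [mul_assoc]
          _ = _ := by rw [hMN, mul_one, mul_one]; simp only [mul_assoc]
      rw [← h2]
      exact h1
    · intro u v
      rw [← hB, ← hB u v]
      simp only [Units.val_mul]
      rw [← hM, ← hN]
      have h3 : ∀ w : Fin k → F, M *ᵥ ((N * (A : Matrix (Fin k) (Fin k) F) * M) *ᵥ w) =
          (A : Matrix (Fin k) (Fin k) F) *ᵥ (M *ᵥ w) := by
        intro w
        rw [mulVec_mulVec, mulVec_mulVec, ← mul_assoc, ← mul_assoc, hMN, one_mul]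
      rw [h3, h3, hA]
  · change N * ((M * K.E * N) * M) ∈ K.Wk
    rw [hback]; exact K.hE
  · change N * ((M * K.E' * N) * M) ∈ K.Wk
    rw [hback]; exact K.hE'
  · rw [hcc, K.EE, mul_zero, zero_mul]
  · rw [hcc, K.EE', mul_zero, zero_mul]
  · rw [hcc, hcc, ← add_mul, ← mul_add, K.EEone, mul_one, hMN]
  · intro u v
    obtain ⟨u, rfl⟩ := hsurj u
    obtain ⟨v, rfl⟩ := hsurj v
    rw [hcv, hcv, hB, hB, K.adjE]
  · intro u v
    obtain ⟨u, rfl⟩ := hsurj u
    obtain ⟨v, rfl⟩ := hsurj v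
    rw [hcv, hcv, hB, hB, K.adjE']
  · rcases K.alt with h | h
    · exact Or.inl h
    · right
      intro v
      obtain ⟨v, rfl⟩ := hsurj v
      rw [hcv, hB, h]
  · rw [hcv, K.E'p, mulVec_zero]
  · rw [hB, K.fpa]
  · rw [hcv, hB, K.fqa]
  · rw [hB, K.fpb]
  · rw [hcv, hB, K.fqb]
  · simp only [hB]; exact K.hxy
  · simp only [hB]; exact K.hsz
  · simp only [hB]; exact K.hxs
  · simp only [hB]; exact K.hxz
  · simp only [hB]; exact K.hys
  · simp only [hB]; exact K.hyz
  · simp only [hupd, hB]; exact K.hxs'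
  · simp only [hupd, hB]; exact K.hys'
  · simp only [hupd, hB]; exact K.hxy'

/-- the case `k = 2`, `t ≥ 3` -/
theorem kd2 {F : Type*} [Field F] (h2 : (2 : F) = 0) (t : ℕ) (ht : 3 ≤ t) :
    Nonempty (KD 2 t (fun u v : Fin 2 → F => u 0 * v 1 + u 1 * v 0)) := by
  have i01 : (⟨0, by omega⟩ : Fin t) ≠ ⟨1, by omega⟩ := by simp
  have i02 : (⟨0, by omega⟩ : Fin t) ≠ ⟨2, by omega⟩ := by simp
  have i12 : (⟨1, by omega⟩ : Fin t) ≠ ⟨2, by omega⟩ := by simp
  have b00 : (![1, 0] : Fin 2 → F) 0 * (![1, 0] : Fin 2 → F) 1 + (![1, 0] : Fin 2 → F) 1 * (![1, 0] : Fin 2 → F) 0 = 0 := by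
    simp
  have b11 : (![0, 1] : Fin 2 → F) 0 * (![0, 1] : Fin 2 → F) 1 + (![0, 1] : Fin 2 → F) 1 * (![0, 1] : Fin 2 → F) 0 = 0 := by
    simp
  have b01 : (![1, 0] : Fin 2 → F) 0 * (![0, 1] : Fin 2 → F) 1 + (![1, 0] : Fin 2 → F) 1 * (![0, 1] : Fin 2 → F) 0 = 1 := by
    simp
  have b10 : (![0, 1] : Fin 2 → F) 0 * (![1, 0] : Fin 2 → F) 1 + (![0, 1] : Fin 2 → F) 1 * (![1, 0] : Fin 2 → F) 0 = 1 := by
    simp
  have hEb : (!![0, 1; 0, 0] : Matrix (Fin 2) (Fin 2) F) *ᵥ ![0, 1] = ![1, 0] := by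
    funext i; fin_cases i <;> simp [mulVec, dotProduct, Fin.sum_univ_two]
  refine ⟨{
    Wk := LinearMap.ker (Matrix.traceLinearMap (Fin 2) F F)
    one := ?_
    sq := ?_
    sim := ?_
    E := !![0, 1; 0, 0]
    E' := !![0, 0; 1, 0]
    hE := ?_
    hE' := ?_
    EE := ?_
    EE' := ?_
    EEone := ?_
    adjE := ?_
    adjE' := ?_
    alt := Or.inl ht
    p := ![0, 1]
    a := ![1, 0]
    b := ![0, 1]
    E'p := ?_
    fpa := b10
    fqa := ?_
    fpb := b11
    fqb := ?_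
    x := fun i => if i = ⟨0, by omega⟩ then ![0, 1] else ![1, 0]
    y := fun _ => ![0, 1]
    s := fun i => if i = ⟨2, by omega⟩ then ![0, 1] else ![1, 0]
    z := fun i => if i = ⟨2, by omega⟩ then ![1, 0] else ![0, 1]
    i₀ := ⟨0, by omega⟩
    hxy := ?_
    hsz := ?_
    hxs := ?_
    hxz := ?_
    hys := ?_
    hyz := ?_
    hxs' := ?_
    hys' := ?_
    hxy' := ?_ }⟩
  · rw [LinearMap.mem_ker, Matrix.traceLinearMap_apply, Matrix.trace_fin_two]
    simp only [Matrix.one_apply_eq]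
    linear_combination h2
  · intro X hX
    rw [LinearMap.mem_ker, Matrix.traceLinearMap_apply, Matrix.trace_fin_two] at hX
    refine ⟨X 0 0 * X 0 0 + X 0 1 * X 1 0, ?_⟩
    ext i j
    fin_cases i <;> fin_cases j <;>
      simp [Matrix.mul_apply, Fin.sum_univ_two]
    · linear_combination X 0 1 * hX
    · linear_combination X 1 0 * hX
    · linear_combination (X 1 1 - X 0 0) * hX
  · intro A c _ _ X hX
    rw [LinearMap.mem_ker, Matrix.traceLinearMap_apply] at hX ⊢
    rw [Matrix.trace_mul_comm, ← mul_assoc, ← Units.val_mul, inv_mul_cancel, Units.val_one, one_mul, hX]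
  · rw [LinearMap.mem_ker, Matrix.traceLinearMap_apply, Matrix.trace_fin_two]
    simp
  · rw [LinearMap.mem_ker, Matrix.traceLinearMap_apply, Matrix.trace_fin_two]
    simp
  · ext i j; fin_cases i <;> fin_cases j <;> simp [Matrix.mul_apply, Fin.sum_univ_two]
  · ext i j; fin_cases i <;> fin_cases j <;> simp [Matrix.mul_apply, Fin.sum_univ_two]
  · ext i j; fin_cases i <;> fin_cases j <;> simp [Matrix.mul_apply, Fin.sum_univ_two]
  · intro u v
    simp [mulVec, dotProduct, Fin.sum_univ_two]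
  · intro u v
    simp [mulVec, dotProduct, Fin.sum_univ_two]
  · funext i; fin_cases i <;> simp [mulVec, dotProduct, Fin.sum_univ_two]
  · rw [hEb]; exact b00
  · rw [hEb]; exact b01
  · refine Finset.prod_eq_zero (Finset.mem_univ ⟨0, by omega⟩) ?_
    rw [if_pos rfl]; exact b11
  · rw [Finset.prod_ne_zero_iff]
    intro i _
    by_cases h : i = ⟨2, by omega⟩
    · rw [if_pos h, if_pos h, b10]; exact one_ne_zero
    · rw [if_neg h, if_neg h, b01]; exact one_ne_zero
  · refine Finset.prod_eq_zero (Finset.mem_univ ⟨1, by omega⟩) ?_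
    rw [if_neg i01.symm, if_neg i12]; exact b00
  · refine Finset.prod_eq_zero (Finset.mem_univ ⟨0, by omega⟩) ?_
    rw [if_pos rfl, if_neg i02]; exact b11
  · refine Finset.prod_eq_zero (Finset.mem_univ ⟨2, by omega⟩) ?_
    rw [if_pos rfl]; exact b11
  · refine Finset.prod_eq_zero (Finset.mem_univ ⟨0, by omega⟩) ?_
    rw [if_neg i02]; exact b11
  · refine Finset.prod_eq_zero (Finset.mem_univ ⟨1, by omega⟩) ?_
    rw [Function.update_of_ne i01.symm, if_neg i01.symm, if_neg i12]; exact b00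
  · refine Finset.prod_eq_zero (Finset.mem_univ ⟨2, by omega⟩) ?_
    rw [Function.update_of_ne i02.symm, if_pos rfl]; exact b11
  · rw [Finset.prod_ne_zero_iff]
    intro i _
    by_cases h : i = ⟨0, by omega⟩
    · rw [h, Function.update_self, if_pos rfl, hEb, b01]; exact one_ne_zero
    · rw [Function.update_of_ne h, if_neg h, b01]; exact one_ne_zero

end H3.SpWKD
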