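import Mathlib
import Cfsg.Agent.Lib.H34.SpWDefs
import Cfsg.Agent.Lib.H3.SpWKA
import Cfsg.Agent.Lib.H25.SpWK4
import Cfsg.Agent.Lib.H49.FormConj3
import Cfsg.Agent.Lib.H97.AschLinear

/-!
# S5707: existence of the data of one tensor factor
-/

set_option autoImplicit false

namespace H3.SpWKD

open Matrix H34.SpW Cfsg.Geo

/-- the bilinear form of a symplectic form given as a function -/
theorem exists_bilin {F : Type*} [Field F] {k : ℕ} {f : (Fin k → F) → (Fin k → F) → F} (hf : IsSymplecticForm f) :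
    ∃ B : LinearMap.BilinForm F (Fin k → F), (∀ u v, B u v = f u v) ∧ H49.FormConj2.NDB B ∧ B.IsAlt := by
  refine ⟨LinearMap.mk₂ F f hf.bilinear.add_left (fun c x v => hf.bilinear.smul_left c x v) hf.bilinear.add_right
    (fun c v x => hf.bilinear.smul_right c v x), fun u v => rfl, ?_, fun v => hf.alternating v⟩
  intro x hx
  by_contra hx0
  obtain ⟨y, hy⟩ := (hf.nondegenerate x hx0).2
  exact hy (hx y)

theorem exists_basis_change {F : Type*} [Field F] [Fintype F] {k : ℕ} {f g : (Fin k → F) → (Fin k → F) → F}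
    (hf : IsSymplecticForm f) (hg : IsSymplecticForm g) :
    ∃ B : GL (Fin k) F, ∀ u v, f ((B : Matrix (Fin k) (Fin k) F) *ᵥ u) ((B : Matrix (Fin k) (Fin k) F) *ᵥ v) = g u v := by
  obtain ⟨Bf, h1, h2, h3⟩ := exists_bilin hf
  obtain ⟨Bg, h4, h5, h6⟩ := exists_bilin hg
  obtain ⟨y, hy⟩ := H49.FormConj3.alt_equiv Bf Bg h2 h5 h3 h6
  have e1 : LinearMap.toMatrix' (y : (Fin k → F) →ₗ[F] (Fin k → F)) *
      LinearMap.toMatrix' (y.symm : (Fin k → F) →ₗ[F] (Fin k → F)) = 1 := by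
    rw [← LinearMap.toMatrix'_comp, LinearEquiv.comp_coe, LinearEquiv.symm_trans_self]
    exact LinearMap.toMatrix'_id
  have e2 : LinearMap.toMatrix' (y.symm : (Fin k → F) →ₗ[F] (Fin k → F)) *
      LinearMap.toMatrix' (y : (Fin k → F) →ₗ[F] (Fin k → F)) = 1 := by
    rw [← LinearMap.toMatrix'_comp, LinearEquiv.comp_coe, LinearEquiv.self_trans_symm]
    exact LinearMap.toMatrix'_id
  refine ⟨⟨_, _, e1, e2⟩, fun u v => ?_⟩
  change f (LinearMap.toMatrix' (y : (Fin k → F) →ₗ[F] (Fin k → F)) *ᵥ u)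
    (LinearMap.toMatrix' (y : (Fin k → F) →ₗ[F] (Fin k → F)) *ᵥ v) = g u v
  rw [LinearMap.toMatrix'_mulVec, LinearMap.toMatrix'_mulVec, ← h1, ← h4]
  exact hy u v

theorem symp2 {F : Type*} [Field F] (h2 : (2 : F) = 0) :
    IsSymplecticForm (fun u v : Fin 2 → F => u 0 * v 1 + u 1 * v 0) where
  bilinear := ⟨fun x y v => by simp only [Pi.add_apply]; ring, fun c x v => by simp only [Pi.smul_apply, smul_eq_mul]; ring,
    fun v x y => by simp only [Pi.add_apply]; ring, fun c v x => by simp only [Pi.smul_apply, smul_eq_mul]; ring⟩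
  skew := fun v w => by linear_combination (v 0 * w 1 + v 1 * w 0) * h2
  alternating := fun v => by linear_combination (v 0 * v 1) * h2
  nondegenerate := by
    intro v hv
    obtain ⟨i, hi⟩ : ∃ i, v i ≠ 0 := by
      by_contra h
      push Not at h
      exact hv (funext h)
    fin_cases i
    · refine ⟨⟨![0, 1], ?_⟩, ⟨![0, 1], ?_⟩⟩ <;> simpa using hi
    · refine ⟨⟨![1, 0], ?_⟩, ⟨![1, 0], ?_⟩⟩ <;> simpa using hi

theorem symp4 {F : Type*} [Field F] (h2 : (2 : F) = 0) :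
    IsSymplecticForm (fun u v : Fin 4 → F => u 0 * v 1 + u 1 * v 0 + u 2 * v 3 + u 3 * v 2) where
  bilinear := ⟨fun x y v => by simp only [Pi.add_apply]; ring, fun c x v => by simp only [Pi.smul_apply, smul_eq_mul]; ring,
    fun v x y => by simp only [Pi.add_apply]; ring, fun c v x => by simp only [Pi.smul_apply, smul_eq_mul]; ring⟩
  skew := fun v w => by linear_combination (v 0 * w 1 + v 1 * w 0 + v 2 * w 3 + v 3 * w 2) * h2
  alternating := fun v => by linear_combination (v 0 * v 1 + v 2 * v 3) * h2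
  nondegenerate := by
    intro v hv
    obtain ⟨i, hi⟩ : ∃ i, v i ≠ 0 := by
      by_contra h
      push Not at h
      exact hv (funext h)
    fin_cases i
    · refine ⟨⟨![0, 1, 0, 0], ?_⟩, ⟨![0, 1, 0, 0], ?_⟩⟩ <;> simpa using hi
    · refine ⟨⟨![1, 0, 0, 0], ?_⟩, ⟨![1, 0, 0, 0], ?_⟩⟩ <;> simpa using hi
    · refine ⟨⟨![0, 0, 0, 1], ?_⟩, ⟨![0, 0, 0, 1], ?_⟩⟩ <;> simpa using hi
    · refine ⟨⟨![0, 0, 1, 0], ?_⟩, ⟨![0, 0, 1, 0], ?_⟩⟩ <;> simpa using hi

/-- **KD**: the data exist for every symplectic form on `F ^ k`, `k ≤ 4`, `k ^ t ≥ 13`, in characteristic 2 -/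
theorem kd_exists {F : Type*} [Field F] [Fintype F] (h2 : (2 : F) = 0) (k t : ℕ) (ht : 2 ≤ t) (hk : k ≤ 4)
    (hn : 13 ≤ k ^ t) (f₁ : (Fin k → F) → (Fin k → F) → F) (hf₁ : Cfsg.Geo.IsSymplecticForm f₁) :
    Nonempty (H34.SpW.KD k t f₁) := by
  have hev := H97.AschLinear.even_of_symplectic hf₁
  rw [Fintype.card_fin] at hev
  have hk0 : k ≠ 0 := by
    rintro rfl
    rw [zero_pow (by omega)] at hn
    omega
  have hk24 : k = 2 ∨ k = 4 := by
    obtain ⟨m, hm⟩ := hev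
    omega
  rcases hk24 with rfl | rfl
  · have ht3 : 3 ≤ t := by
      by_contra h
      have : t = 2 := by omega
      subst this
      norm_num at hn
    obtain ⟨B, hB⟩ := exists_basis_change hf₁ (symp2 h2)
    obtain ⟨K⟩ := kd2 h2 t ht3
    exact transport f₁ _ B hB K
  · obtain ⟨B, hB⟩ := exists_basis_change hf₁ (symp4 h2)
    obtain ⟨K⟩ := H25.SpW.kd4 h2 t ht
    exact transport f₁ _ B hB K

end H3.SpWKD
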